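import Cfsg.Agent.H161.Sp.Fi24
import Cfsg.Agent.H149.Sa.NoLieSmall
import Cfsg.Agent.H964.SpAlt.Spor
import Cfsg.Agent.H511.Sp.TopN
import Cfsg.Agent.H912.KnownSplit

/-!
# Rows 29 and 30 of SPEC-ALT from the structure of `G`
-/

set_option autoImplicit false
set_option linter.unusedSectionVars false

namespace Cfsg.Agent.H161.Sp

open Subgroup Cfsg Cfsg.Agent.H357.Sp Cfsg.Agent.H267.Sp.SpecAlt

theorem T_cases {n : ℕ} (hn : n = 29 ∨ n = 30) : T n = {17, 19, 23, 29} := by
  rcases hn with rfl | rfl <;> decide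

/-- primes dividing the order of a section are at most `n` -/
theorem prime_le {ε n : ℕ} {G : Type*} [Group G] [Finite G] (h : Spec ε n G) {p : ℕ} (hp : p.Prime)
    (hd : p ∣ Nat.card G) : p ≤ n := by
  have : Fact p.Prime := ⟨hp⟩
  obtain ⟨x, hx⟩ := exists_prime_orderOf_dvd_card' (G := G) p hd
  have := h.up x
  rw [hx, W_prime hp] at this
  omega

/-- orders of elements of a section -/
theorem exists_order {G : Type*} [Group G] [Finite G] (K : Subgroup G) [K.Normal] (S : Subgroup (G ⧸ K)) (x : S) :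
    ∃ y : G, orderOf y = orderOf x := by
  obtain ⟨g, hg⟩ := QuotientGroup.mk'_surjective K (x : G ⧸ K)
  have h1 : orderOf x ∣ orderOf g := by
    rw [← Subgroup.orderOf_coe, ← hg]
    exact orderOf_map_dvd _ g
  obtain ⟨c, hc⟩ := h1
  have h0 : 0 < orderOf g := orderOf_pos g
  have hc0 : c ≠ 0 := by rintro rfl; rw [hc] at h0; simp at h0
  refine ⟨g ^ c, ?_⟩
  rw [orderOf_pow' g hc0, hc, Nat.gcd_eq_right (Dvd.intro_left _ rfl)]
  exact Nat.mul_div_cancel _ (Nat.pos_of_ne_zero hc0)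

theorem row_of_data {ε n : ℕ} (hn : n = 29 ∨ n = 30) {G : Type} [Group G] [Finite G] (h : Spec ε n G)
    (hrec : Rec ε (n - 17)) (K : Subgroup G) [K.Normal] (hK : Group.IsSolvable K) (S : Subgroup (G ⧸ K)) [S.Normal]
    [IsSimpleGroup S] (hnc : ∃ a b : S, a * b ≠ b * a) (hcent : centralizer (S : Set (G ⧸ K)) = ⊥) (t₀ : ℕ)
    (hT : ∀ p ∈ T n, p ≠ t₀ → p ∣ Nat.card S ∧ ¬ p ∣ Nat.card K ∧ ¬ p ∣ S.index)
    (h29 : (Nonempty (S ≃* alternatingGroup (Fin 7)) ∨
      (∃ (F : Type) (_ : Field F) (_ : Fintype F), Odd (Fintype.card F) ∧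
        Nonempty (S ≃* Matrix.ProjectiveSpecialLinearGroup (Fin 2) F))) ∨
      (29 ∣ Nat.card S ∧ ¬ 29 ∣ Nat.card K ∧ ¬ 29 ∣ S.index)) (hk : IsKnownSimple' S) :
    ∃ (N : Subgroup G) (_ : N.Normal), Group.IsSolvable ↥N ∧ ∃ m, 29 ≤ m ∧ m ≤ n ∧ Top m N := by
  have hn29 : 29 ≤ n := by omega
  have hcardG : Nat.card S ∣ Nat.card G := by
    have h1 : Nat.card G = Nat.card (G ⧸ K) * Nat.card K := Subgroup.card_eq_card_quotient_mul_card_subgroup K
    rw [h1]
    exact (card_subgroup_dvd_card S).mul_right _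
  have hsm : ∀ p : ℕ, p.Prime → p ∣ Nat.card S → p ≤ n := fun p hp hd => prime_le h hp (hd.trans hcardG)
  have hT' : ∀ p ∈ T n, p ≠ t₀ → p ∣ Nat.card S := fun p hp hpt => (hT p hp hpt).1
  have hlie : ∀ r : ℕ, r.Prime → Cfsg.Agent.H414.LieShape.Shape r (Nat.card S) → False := fun r hr hsh =>
    Cfsg.Agent.H149.Sa.no_lie_small hn29 (by omega) hr hsh hsm t₀ hT'
  have hTe := T_cases hn
  -- `29` does not divide `|K| |G/K : S|`
  have h29' : 29 ∣ Nat.card S ∧ ¬ 29 ∣ Nat.card K ∧ ¬ 29 ∣ S.index := by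
    rcases h29 with (⟨⟨f⟩⟩ | ⟨F, _, _, -, ⟨f⟩⟩) | h29
    · exfalso
      have h1 : Nat.card S = 2520 := by
        have : Nontrivial (Fin 7) := Fin.nontrivial_iff_two_le.2 (by norm_num)
        have h2 := two_mul_nat_card_alternatingGroup (α := Fin 7)
        rw [Nat.card_perm, Nat.card_eq_fintype_card (α := Fin _), Fintype.card_fin] at h2
        rw [Nat.card_congr f.toEquiv]
        have h3 : Nat.factorial 7 = 5040 := rfl
        omega
      have h17 := hT' 17 (by rw [hTe]; simp)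
      have h19 := hT' 19 (by rw [hTe]; simp)
      rw [h1] at h17 h19
      by_cases e : (17 : ℕ) = t₀
      · exact absurd (h19 (by omega)) (by decide)
      · exact absurd (h17 e) (by decide)
    · exfalso
      obtain ⟨p, hp, hF⟩ := Cfsg.Agent.H912.Known.exists_char F
      refine hlie p hp ?_
      rw [Nat.card_congr f.toEquiv]
      exact Cfsg.Agent.H414.LieShape.shape_psl le_rfl hp
    · exact h29
  have hpc : ¬ IsPrimeCyclic S := by
    intro hpc
    obtain ⟨a, b, hab⟩ := hnc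
    have : Fact (Nat.card S).Prime := ⟨hpc⟩
    have : IsCyclic S := isCyclic_of_prime_card rfl
    exact hab (IsCyclic.commGroup.mul_comm a b)
  rcases Cfsg.Agent.H912.Known.known_split hk hpc with ⟨m, hm, ⟨f⟩⟩ | ⟨r, hr, hL⟩ | hts
  · -- alternating
    have h29m : 29 ≤ m := by
      have h1 : 29 ∣ Nat.factorial m := by
        have : Nontrivial (Fin m) := Fin.nontrivial_iff_two_le.2 (by omega)
        have h2 := two_mul_nat_card_alternatingGroup (α := Fin m)
        rw [Nat.card_perm, Nat.card_eq_fintype_card (α := Fin _), Fintype.card_fin] at h2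
        rw [← h2, ← Nat.card_congr f.toEquiv]
        exact h29'.1.mul_left 2
      exact (Nat.Prime.dvd_factorial (by norm_num)).1 h1
    have hmn : m ≤ n := by
      refine Cfsg.Agent.H964.SpAlt.alt_bound hn29 fun g => ?_
      obtain ⟨y, hy⟩ := exists_order K S (f.symm g)
      have h1 : orderOf (f.symm g) = orderOf g := orderOf_injective f.symm.toMonoidHom f.symm.injective g
      have h2 := h.up y
      rw [hy, h1] at h2
      omega
    obtain ⟨N, hN, htop, -, -, hNK⟩ := Cfsg.Agent.H511.Sp.exists_top (K := K) (M := S) (m := m) (by omega) ⟨f⟩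
    refine ⟨N, hN, ?_, m, h29m, hmn, htop⟩
    rw [hNK hcent]
    exact hK
  · exact (hlie r hr (Cfsg.Agent.H414.LieShape.shape_of_lie hr hL)).elim
  · exfalso
    have h1 := Cfsg.Agent.H964.SpAlt.spor_group (n := n) hn29 (Or.symm hts) hsm t₀ hT'
    rcases h1 with ⟨-, h2, -⟩ | ⟨h1, -⟩
    · omega
    · -- `Fi₂₄'`
      have ht : t₀ = 19 := by
        by_contra hne
        have h2 := hT' 19 (by rw [hTe]; simp) (Ne.symm hne)
        rw [h1] at h2
        revert h2
        decide +kernel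
      have h17 := hT 17 (by rw [hTe]; simp) (by omega)
      exact false_of_fi24 hn h hrec K hK S h1 h17.2.1 h17.2.2 h29'.2.2

end Cfsg.Agent.H161.Sp
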